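import Cfsg.Agent.ChevalleyStructure.GraphF4
import Cfsg.Agent.ChevalleyStructure.TwF4.TorusFix
import Cfsg.Agent.ChevalleyStructure.TwF4.WeylDih
import Cfsg.Agent.ChevalleyStructure.TwF4.BN
import Cfsg.Agent.GpExc.Field
import Cfsg.Agent.S1100
import Cfsg.Agent.S1054

/-!
# The involutory automorphism σ of F₄(q), q = 2^(2m+1), and its fixed points ²F₄(q) (helper720)

* `exists_sigma` : an automorphism `σ` of `chevF4.group K` with `σ (x_r(t)) = x_{r̄}(θ(t^λ))`, `θ x = x ^ 2 ^ m`;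
* `sigma_fixed` : `σ (σ y) = y` and `σ y = y ↔ y ∈ twistedF4 K (2 ^ m)`.
-/

set_option autoImplicit false
set_option linter.unusedSectionVars false

namespace Cfsg.Agent.H720.SigF4

open Cfsg.Lie Cfsg.Agent.ChevalleyStructure.TwF4.Bits Cfsg.Agent.ChevalleyStructure.TwF4.Tables
open Cfsg.Agent.ChevalleyStructure.TwF4.Rel Cfsg.Agent.ChevalleyStructure.TwF4.Fix
open Cfsg.Agent.ChevalleyStructure.TwF4.Groups Cfsg.Agent.ChevalleyStructure.TwF4.RankOne
open Cfsg.Agent.ChevalleyStructure.TwF4.Twisted Cfsg.Agent.ChevalleyStructure.TwF4.TwistedFix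
open Cfsg.Agent.ChevalleyStructure.GraphTabF4

variable {K : Type*} [Field K] [CharP K 2]

theorem X_mem_group (r : ℕ) (t : K) : X r t ∈ chevF4.group K := by
  by_cases hr : r < 48
  · refine Subgroup.subset_closure ⟨⟨r, hr⟩, t, ?_⟩
    rw [coe_X]
    exact dif_pos hr
  · rw [show X r t = 1 from Units.ext (x_ge r hr t)]
    exact one_mem _

theorem W_mem_group (w : List (ℕ × K)) : W w ∈ chevF4.group K := by
  induction w with
  | nil => exact one_mem _
  | cons p w ih => rw [W_cons]; exact mul_mem (X_mem_group _ _) ih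

theorem W_inv (w : List (ℕ × K)) : (W w)⁻¹ = W w.reverse := by
  induction w with
  | nil => simp
  | cons p w ih => rw [W_cons, mul_inv_rev, ih, X_inv, List.reverse_cons, W_append, W_cons, W_nil, mul_one]

/-- every element of `F₄(K)` is a word in the root elements. -/
theorem exists_word {g : GL chevF4.Idx K} (hg : g ∈ chevF4.group K) :
    ∃ w : List (ℕ × K), (∀ p ∈ w, p.1 < 48) ∧ g = W w := by
  refine Subgroup.closure_induction ?_ ?_ ?_ ?_ hg
  · rintro x ⟨r, t, h⟩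
    refine ⟨[(r.val, t)], ?_, ?_⟩
    · intro p hp
      rw [List.mem_singleton] at hp
      rw [hp]
      exact r.2
    · rw [W_cons, W_nil, mul_one, eq_X_iff, h]
      show _ = chevF4.x K r.val t
      unfold ChevalleyDatum.x
      rw [dif_pos r.2]
  · exact ⟨[], by simp, rfl⟩
  · rintro x y _ _ ⟨w, h1, rfl⟩ ⟨w', h2, rfl⟩
    refine ⟨w ++ w', ?_, (W_append _ _).symm⟩
    intro p hp
    rcases List.mem_append.1 hp with h | h
    · exact h1 p h
    · exact h2 p h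
  · rintro x _ ⟨w, h1, rfl⟩
    exact ⟨w.reverse, fun p hp => h1 p (List.mem_reverse.1 hp), W_inv w⟩

theorem group_le_BlkG [Finite K] : chevF4.group K ≤ BlkG K := by
  intro g hg
  obtain ⟨w, -, rfl⟩ := exists_word hg
  exact W_mem_BlkG w

/-- the field automorphism `x ↦ x ^ 2 ^ m`. -/
def th (K : Type*) [Field K] [CharP K 2] (m : ℕ) : K →+* K := iterateFrobenius K 2 m

theorem th_apply (m : ℕ) (x : K) : th K m x = x ^ 2 ^ m := iterateFrobenius_def ..

theorem tab_agree : ∀ r < 48, tabF4.bar.getD r 0 = bar r ∧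
    tabF4.lam.getD r 0 = if isLong r then 1 else 2 := by decide +kernel

/-- the image of a word under `σ`. -/
def sg (m : ℕ) (w : List (ℕ × K)) : List (ℕ × K) := w.map fun p => (bar p.1, th K m (lam p.1 p.2))

theorem sg_cons (m : ℕ) (p : ℕ × K) (w : List (ℕ × K)) :
    sg m (p :: w) = (bar p.1, th K m (lam p.1 p.2)) :: sg m w := rfl

theorem sg_append (m : ℕ) (w w' : List (ℕ × K)) : sg m (w ++ w') = sg m w ++ sg m w' := List.map_append

theorem sg_lt (m : ℕ) {w : List (ℕ × K)} (hw : ∀ p ∈ w, p.1 < 48) : ∀ p ∈ sg m w, p.1 < 48 := by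
  intro p hp
  obtain ⟨q, hq, rfl⟩ := List.mem_map.1 hp
  exact bar_lt _ (hw q hq)

theorem th_bijective [Finite K] (m : ℕ) : Function.Bijective (th K m) :=
  Finite.injective_iff_bijective.1 (th K m).injective

/-- **The automorphism `σ`.** -/
theorem exists_sigma [Finite K] (m : ℕ) : ∃ σ : ↥(chevF4.group K) ≃* ↥(chevF4.group K),
    ∀ (y : ↥(chevF4.group K)) (w : List (ℕ × K)), (∀ p ∈ w, p.1 < 48) → (y : GL chevF4.Idx K) = W w →
      ((σ y : ↥(chevF4.group K)) : GL chevF4.Idx K) = W (sg m w) := by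
  have hperf : ∀ x : K, ∃ y : K, y ^ 2 = x := by
    intro x
    obtain ⟨y, hy⟩ := (th_bijective (K := K) 1).2 x
    rw [th_apply] at hy
    exact ⟨y, by simpa using hy⟩
  obtain ⟨α, hα⟩ := Cfsg.Agent.ChevalleyStructure.GraphF4.exists_graph hperf
  have hL : Cfsg.Agent.ChevalleyStructure.Elts.InList chevF4 := Cfsg.Agent.ChevalleyStructure.F4Fixed.inList
  let β : ↥(chevF4.group K) →* ↥(chevF4.group K) := Cfsg.Agent.GpExc.Field.emb hL (th K m)
  have hβ : Function.Bijective β :=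
    Finite.injective_iff_bijective.1 (Cfsg.Agent.GpExc.Field.emb_injective hL (th K m))
  let σ : ↥(chevF4.group K) ≃* ↥(chevF4.group K) := α.trans (MulEquiv.ofBijective β hβ)
  refine ⟨σ, ?_⟩
  intro y w
  induction w generalizing y with
  | nil =>
    intro _ hy
    have : y = 1 := Subtype.ext hy
    rw [this, map_one]
    rfl
  | cons p w ih =>
    intro hw hy
    have hp := hw p List.mem_cons_self
    have hw' : ∀ q ∈ w, q.1 < 48 := fun q hq => hw q (List.mem_cons_of_mem _ hq)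
    have e1 : y = ⟨X p.1 p.2, X_mem_group _ _⟩ * ⟨W w, W_mem_group w⟩ := Subtype.ext (hy.trans (W_cons p w))
    rw [e1, map_mul, sg_cons, W_cons, Subgroup.coe_mul, ih ⟨W w, W_mem_group w⟩ hw' rfl]
    congr 1
    apply Units.ext
    have e2 := hα ⟨X p.1 p.2, X_mem_group _ _⟩ p.1 p.2 hp rfl
    show (((β (α ⟨X p.1 p.2, X_mem_group _ _⟩) : ↥(chevF4.group K)) : GL chevF4.Idx K) :
      Matrix chevF4.Idx chevF4.Idx K) = _
    rw [Cfsg.Agent.GpExc.Field.coe_emb, Cfsg.Agent.GpExc.Field.coe_glMap, e2,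
      Cfsg.Agent.ChevalleyStructure.WordEntry.x_map, (tab_agree p.1 hp).1, (tab_agree p.1 hp).2]
    rw [coe_X]
    congr 2
    unfold lam
    split <;> simp

/-! ### the fixed points of `σ` inside `Fix φ` -/

section Sigma

variable [Finite K] {m : ℕ} {σ : ↥(chevF4.group K) ≃* ↥(chevF4.group K)}

/-- the defining property of `σ` -/
def IsSig (m : ℕ) (σ : ↥(chevF4.group K) ≃* ↥(chevF4.group K)) : Prop :=
  ∀ (y : ↥(chevF4.group K)) (w : List (ℕ × K)), (∀ p ∈ w, p.1 < 48) → (y : GL chevF4.Idx K) = W w →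
      ((σ y : ↥(chevF4.group K)) : GL chevF4.Idx K) = W (sg m w)

theorem bar_bar (r : ℕ) (hr : r < 48) : bar (bar r) = r := by
  have h := bar_facts
  rw [List.all_eq_true] at h
  have h1 := h r (List.mem_range.2 hr)
  simp only [Bool.and_eq_true, decide_eq_true_eq] at h1
  exact h1.1.1.1.1.1.1.2

theorem sq_twice {r : ℕ} (hr : r < 48) {φ : K →+* K} (hφ : Rln φ (2 ^ m)) (t : K) :
    th K m (lam (bar r) (th K m (lam r t))) = t := by
  have h1 := hφ.phi_pow
  have h2 := hφ.phi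
  have key : ((t ^ 2 ^ m) ^ 2) ^ 2 ^ m = t := by
    apply φ.injective
    rw [h1, h2]
  have key' : (t ^ 2 ^ m) ^ 2 = (t ^ 2) ^ 2 ^ m := by rw [← pow_mul, ← pow_mul, mul_comm]
  unfold lam
  rw [isLong_bar r hr]
  cases isLong r
  · simp only [Bool.not_false, if_true, Bool.false_eq_true, if_false]
    rw [th_apply, th_apply, ← key', key]
  · simp only [Bool.not_true, if_true, Bool.false_eq_true, if_false]
    rw [th_apply, th_apply, key]

theorem sg_sg {φ : K →+* K} (hφ : Rln φ (2 ^ m)) (w : List (ℕ × K)) (hw : ∀ p ∈ w, p.1 < 48) :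
    sg m (sg m w) = w := by
  unfold sg
  rw [List.map_map]
  conv_rhs => rw [← List.map_id w]
  apply List.map_congr_left
  intro p hp
  exact Prod.ext (bar_bar _ (hw p hp)) (sq_twice (hw p hp) hφ p.2)

/-- `σ² = 1`. -/
theorem sig_sig {φ : K →+* K} (hφ : Rln φ (2 ^ m)) (hσ : IsSig m σ) (y : ↥(chevF4.group K)) :
    σ (σ y) = y := by
  obtain ⟨w, hw, h⟩ := exists_word y.2
  apply Subtype.ext
  rw [hσ _ _ (sg_lt m hw) (hσ _ _ hw h), sg_sg hφ w hw, h]

theorem phiW_sg {φ : K →+* K} (hφ : Rln φ (2 ^ m)) (w : List (ℕ × K)) :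
    phiW φ (sg m w) = gam w := by
  unfold phiW sg gam
  rw [List.map_map]
  apply List.map_congr_left
  intro p _
  refine Prod.ext rfl ?_
  show φ (th K m (lam p.1 p.2)) = lam p.1 p.2
  rw [th_apply, hφ.phi_pow]

/-- `Cmat g = φ (Amat (σ g))`. -/
theorem Cmat_eq {φ : K →+* K} (hφ : Rln φ (2 ^ m)) (hσ : IsSig m σ) (y : ↥(chevF4.group K)) :
    Cmat ((y : GL chevF4.Idx K) : Matrix chevF4.Idx chevF4.Idx K) =
      (Amat (((σ y : ↥(chevF4.group K)) : GL chevF4.Idx K) : Matrix chevF4.Idx chevF4.Idx K)).map φ := by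
  obtain ⟨w, hw, h⟩ := exists_word y.2
  rw [hσ _ _ hw h, h, Cmat_W w hw, Amat_W_map, phiW_sg hφ]

/-- the representation `Amat` of `F₄(K)`. -/
noncomputable def AH (K : Type*) [Field K] [CharP K 2] [Finite K] :
    ↥(chevF4.group K) →* Matrix (Fin 26) (Fin 26) K where
  toFun y := Amat ((y : GL chevF4.Idx K) : Matrix chevF4.Idx chevF4.Idx K)
  map_one' := Amat_one
  map_mul' x y := by
    show Amat (((x : GL chevF4.Idx K) * (y : GL chevF4.Idx K) : GL chevF4.Idx K) :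
      Matrix chevF4.Idx chevF4.Idx K) = _
    rw [Units.val_mul, Amat_mul (group_le_BlkG y.2)]

theorem AH_apply (y : ↥(chevF4.group K)) :
    AH K y = Amat ((y : GL chevF4.Idx K) : Matrix chevF4.Idx chevF4.Idx K) := rfl

theorem AH_injective : Function.Injective (AH K) := by
  rw [← MonoidHom.ker_eq_bot_iff]
  have := (Cfsg.Agent.S1054.result (F := K) chevF4 (by simp)).1
  rcases (MonoidHom.normal_ker (AH K)).eq_bot_or_eq_top with h | h
  · exact h
  · exfalso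
    have h1 : (⟨NF (1 : K) 0 0 0, by
      unfold NF
      exact mul_mem (mul_mem (mul_mem (X_mem_group _ _) (X_mem_group _ _)) (X_mem_group _ _))
        (X_mem_group _ _)⟩ : ↥(chevF4.group K)) ∈ (AH K).ker := by
      rw [h]; trivial
    rw [MonoidHom.mem_ker, AH_apply] at h1
    have h2 := (NF_coord (a := (1 : K)) (b := 0) (c := 0) (d := 0) (a' := 0) (b' := 0) (c' := 0) (d' := 0)
      (by rw [NF_one]; exact h1.trans Amat_one.symm)).1
    exact one_ne_zero h2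

/-- the fixed points of `σ` are the elements of `Fix φ`. -/
theorem fixed_iff {φ : K →+* K} (hφ : Rln φ (2 ^ m)) (hσ : IsSig m σ) (y : ↥(chevF4.group K)) :
    σ y = y ↔ (y : GL chevF4.Idx K) ∈ Fix φ := by
  rw [mem_Fix]
  constructor
  · intro h
    refine ⟨group_le_BlkG y.2, ?_⟩
    rw [Cmat_eq hφ hσ, h]
  · rintro ⟨-, h⟩
    rw [Cmat_eq hφ hσ] at h
    apply AH_injective
    ext i j
    have := congrFun (congrFun h i) j
    rw [Matrix.map_apply, Matrix.map_apply] at this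
    exact φ.injective this

/-! ### the image of the standard subgroups -/

/-- the elements of `F₄(K)` whose image under `σ` lies in `A`. -/
def Pre (σ : ↥(chevF4.group K) ≃* ↥(chevF4.group K)) (A : Subgroup (GL chevF4.Idx K)) :
    Subgroup (GL chevF4.Idx K) :=
  (((A.subgroupOf (chevF4.group K)).comap σ.toMonoidHom)).map (chevF4.group K).subtype

theorem mem_Pre {A : Subgroup (GL chevF4.Idx K)} {g : GL chevF4.Idx K} :
    g ∈ Pre σ A ↔ ∃ hg : g ∈ chevF4.group K, ((σ ⟨g, hg⟩ : ↥(chevF4.group K)) : GL chevF4.Idx K) ∈ A := by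
  unfold Pre
  rw [Subgroup.mem_map]
  constructor
  · rintro ⟨x, hx, rfl⟩
    exact ⟨x.2, hx⟩
  · rintro ⟨hg, h⟩
    exact ⟨⟨g, hg⟩, h, rfl⟩

theorem W_mem_Pre (hσ : IsSig m σ) {A : Subgroup (GL chevF4.Idx K)} {w : List (ℕ × K)}
    (hw : ∀ p ∈ w, p.1 < 48) (h : W (sg m w) ∈ A) : W w ∈ Pre σ A := by
  rw [mem_Pre]
  refine ⟨W_mem_group w, ?_⟩
  rw [hσ _ w hw rfl]
  exact h

theorem X_mem_Pre (hσ : IsSig m σ) {A : Subgroup (GL chevF4.Idx K)} {r : ℕ} (hr : r < 48) {t : K}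
    (h : X (bar r) (th K m (lam r t)) ∈ A) : X r t ∈ Pre σ A := by
  have h1 := W_mem_Pre hσ (A := A) (w := [(r, t)]) (by simpa using hr)
    (by rw [sg_cons, W_cons, show sg m ([] : List (ℕ × K)) = [] from rfl, W_nil, mul_one]; exact h)
  rwa [W_cons, W_nil, mul_one] at h1

theorem pos_le_Pre (hσ : IsSig m σ) : GA K posB ≤ Pre σ (GA K posB) := by
  rw [GA_le_iff]
  intro r hr hp t
  refine X_mem_Pre hσ hr (X_mem_GA (bar_lt r hr) ?_ _)
  unfold posB at hp ⊢
  rw [decide_eq_true_eq] at hp ⊢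
  exact (pos_bar r hr).2 hp

theorem neg_tab : ∀ r < 48, bar (47 - r) = 47 - bar r ∧ isLong (47 - r) = isLong r := by decide +kernel

theorem sg_hW (r : ℕ) (hr : r < 48) (t : K) : sg m (hW r t) = hW (bar r) (th K m (lam r t)) := by
  have hn : ∀ x : K, -x = x := fun x => CharTwo.neg_eq x
  have e1 : ∀ x : K, lam (47 - r) x = lam r x := by
    intro x
    unfold lam
    rw [(neg_tab r hr).2]
  have e2 : ∀ x : K, lam r x⁻¹ = (lam r x)⁻¹ := by
    intro x
    unfold lam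
    split
    · rfl
    · rw [inv_pow]
  have e3 : lam r (1 : K) = 1 := by
    unfold lam
    split <;> simp
  unfold sg hW
  simp only [List.map_cons, List.map_nil, (neg_tab r hr).1, e1, e2, e3, hn, map_inv₀, map_one, inv_one]

theorem diag_le_Pre (hσ : IsSig m σ) :
    chevF4.diagonalSubgroup K ≤ Pre σ (chevF4.diagonalSubgroup K) := by
  rw [diag_le_iff]
  intro r hr t ht
  have hw : ∀ p ∈ hW r t, p.1 < 48 := by
    intro p hp
    unfold hW at hp
    simp only [List.mem_cons, List.not_mem_nil, or_false] at hp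
    rcases hp with rfl | rfl | rfl | rfl | rfl | rfl <;> simp <;> omega
  refine W_mem_Pre hσ hw ?_
  rw [sg_hW r hr]
  refine hG_mem _ (bar_lt r hr) _ ?_
  rw [th_apply]
  refine pow_ne_zero _ ?_
  unfold lam
  split
  · exact ht
  · exact pow_ne_zero _ ht

theorem borel_le_Pre (hσ : IsSig m σ) :
    chevF4.borelSubgroup K ≤ Pre σ (chevF4.borelSubgroup K) := by
  have h1 : Pre σ (GA K posB) ≤ Pre σ (chevF4.borelSubgroup K) := by
    intro g hg
    rw [mem_Pre] at hg ⊢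
    obtain ⟨h, h'⟩ := hg
    refine ⟨h, ?_⟩
    exact (show GA K posB ≤ chevF4.borelSubgroup K by
      rw [← posUnipotent_eq]; exact le_sup_left) h'
  have h2 : Pre σ (chevF4.diagonalSubgroup K) ≤ Pre σ (chevF4.borelSubgroup K) := by
    intro g hg
    rw [mem_Pre] at hg ⊢
    obtain ⟨h, h'⟩ := hg
    exact ⟨h, (le_sup_right : chevF4.diagonalSubgroup K ≤ chevF4.borelSubgroup K) h'⟩
  refine sup_le ?_ ((diag_le_Pre hσ).trans h2)
  rw [posUnipotent_eq]
  exact (pos_le_Pre hσ).trans h1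

/-! ### the permutation of the roots -/

open Cfsg.Agent.ChevalleyStructure.TwF4.NStruct (R HasPerm permHom hasPerm_permHom reflP mono_nG Wm
  monomial_eq permHom_eq nG_mem_Wm Wm_le_N hasPerm_T permHom_nG N_conj_diagonal permHom_car reflP_val)
open Cfsg.Agent.ChevalleyStructure.TwF4.WeylDih (barR)

theorem barR_val (u : R) : (barR u).val = bar u.val := rfl

/-- the permutation `r ↦ r̄` of the roots. -/
def barP : Equiv.Perm R where
  toFun := barR
  invFun := barR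
  left_inv u := Fin.ext (bar_bar u.val u.2)
  right_inv u := Fin.ext (bar_bar u.val u.2)

theorem barP_apply (u : R) : barP u = barR u := rfl
theorem barP_inv_apply (u : R) : barP⁻¹ u = barR u := rfl

theorem wt_bar : ((List.range 48).all fun r => (List.range 48).all fun s =>
    decide (Cfsg.Agent.ChevalleyStructure.F4NTab.wt (bar r) (bar s) =
      bar (Cfsg.Agent.ChevalleyStructure.F4NTab.wt r s))) = true := by decide +kernel

theorem reflP_bar {r : ℕ} (hr : r < 48) : reflP (bar r) (bar_lt r hr) = barP * reflP r hr * barP⁻¹ := by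
  ext s
  rw [Equiv.Perm.mul_apply, Equiv.Perm.mul_apply, barP_inv_apply, barP_apply, barR_val, reflP_val, reflP_val,
    barR_val]
  have h := wt_bar
  rw [List.all_eq_true] at h
  have h1 := h r (List.mem_range.2 hr)
  rw [List.all_eq_true] at h1
  have h2 := of_decide_eq_true (h1 (bar s.val) (List.mem_range.2 (bar_lt _ s.2)))
  rw [← h2, bar_bar _ s.2]

theorem sig_nG (hσ : IsSig m σ) {r : ℕ} (hr : r < 48) (hg : nG K r ∈ chevF4.group K) :
    ((σ ⟨nG K r, hg⟩ : ↥(chevF4.group K)) : GL chevF4.Idx K) = nG K (bar r) := by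
  have e1 : nG K r = W [(r, 1), (47 - r, 1), (r, 1)] := by
    rw [W_cons, W_cons, W_cons, W_nil, mul_one, ← mul_assoc]; rfl
  have e3 : ∀ s, lam s (1 : K) = 1 := by
    intro s
    unfold lam
    split <;> simp
  rw [hσ _ [(r, 1), (47 - r, 1), (r, 1)] (by
    intro p hp
    simp only [List.mem_cons, List.not_mem_nil, or_false] at hp
    rcases hp with rfl | rfl | rfl <;> simp <;> omega) e1]
  unfold sg
  simp only [List.map_cons, List.map_nil, (neg_tab r hr).1, e3, map_one]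
  rw [W_cons, W_cons, W_cons, W_nil, mul_one, ← mul_assoc]
  rfl

theorem nG_mem_group (r : ℕ) : nG K r ∈ chevF4.group K :=
  mul_mem (mul_mem (X_mem_group _ _) (X_mem_group _ _)) (X_mem_group _ _)

theorem T_mem_diag (c : Fin 4 → Kˣ) :
    Cfsg.Agent.ChevalleyStructure.TwF4.Torus.T c ∈ chevF4.diagonalSubgroup K := by
  rw [Cfsg.Agent.ChevalleyStructure.TwF4.Torus.diagonal_eq_range]
  exact ⟨c, rfl⟩

theorem diag_le_N : chevF4.diagonalSubgroup K ≤ chevF4.monomialSubgroup K := le_sup_left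

theorem N_le_iff {S : Subgroup (GL chevF4.Idx K)} : chevF4.monomialSubgroup K ≤ S ↔
    (∀ c : Fin 4 → Kˣ, Cfsg.Agent.ChevalleyStructure.TwF4.Torus.T c ∈ S) ∧ ∀ r < 48, nG K r ∈ S := by
  rw [monomial_eq, sup_le_iff]
  unfold Wm
  rw [Subgroup.closure_le]
  constructor
  · rintro ⟨h1, h2⟩
    exact ⟨fun c => h1 ⟨c, rfl⟩, fun r hr => h2 ⟨r, hr, rfl⟩⟩
  · rintro ⟨h1, h2⟩
    refine ⟨?_, ?_⟩
    · rintro x ⟨c, rfl⟩
      exact h1 c
    · rintro x ⟨r, hr, rfl⟩
      exact h2 r hr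

theorem N_le_Pre (hσ : IsSig m σ) :
    chevF4.monomialSubgroup K ≤ Pre σ (chevF4.monomialSubgroup K) := by
  rw [N_le_iff]
  constructor
  · intro c
    have h := diag_le_Pre hσ (T_mem_diag c)
    rw [mem_Pre] at h ⊢
    obtain ⟨h1, h2⟩ := h
    exact ⟨h1, diag_le_N h2⟩
  · intro r hr
    rw [mem_Pre]
    refine ⟨nG_mem_group r, ?_⟩
    rw [sig_nG hσ hr]
    exact Wm_le_N (nG_mem_Wm (bar_lt r hr))

/-- the permutation of `σ(n)`. -/
theorem perm_sig (hσ : IsSig m σ) (n : GL chevF4.Idx K) (hn : n ∈ chevF4.monomialSubgroup K) :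
    ∃ (hg : n ∈ chevF4.group K)
      (h : ((σ ⟨n, hg⟩ : ↥(chevF4.group K)) : GL chevF4.Idx K) ∈ chevF4.monomialSubgroup K),
      permHom K ⟨_, h⟩ = barP * permHom K ⟨n, hn⟩ * barP⁻¹ := by
  have hg : ∀ x : ↥(chevF4.monomialSubgroup K), (x : GL chevF4.Idx K) ∈ chevF4.group K := fun x =>
    (mem_Pre.1 (N_le_Pre hσ x.2)).1
  let i : ↥(chevF4.monomialSubgroup K) →* ↥(chevF4.group K) :=
    (chevF4.monomialSubgroup K).subtype.codRestrict (chevF4.group K) hg
  let j : ↥(chevF4.monomialSubgroup K) →* GL chevF4.Idx K :=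
    ((chevF4.group K).subtype.comp σ.toMonoidHom).comp i
  have hj : ∀ x, j x ∈ chevF4.monomialSubgroup K := fun x => (mem_Pre.1 (N_le_Pre hσ x.2)).2
  let f1 : ↥(chevF4.monomialSubgroup K) →* Equiv.Perm R :=
    (permHom K).comp (j.codRestrict (chevF4.monomialSubgroup K) hj)
  let f2 : ↥(chevF4.monomialSubgroup K) →* Equiv.Perm R :=
    (MulAut.conj barP).toMonoidHom.comp (permHom K)
  have hdiag : ∀ x : ↥(chevF4.monomialSubgroup K), (x : GL chevF4.Idx K) ∈ chevF4.diagonalSubgroup K →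
      permHom K x = 1 := by
    intro x hx
    exact (Cfsg.Agent.ChevalleyStructure.TwF4.NStruct.permHom_eq_one_iff x).2 hx
  have hle : chevF4.monomialSubgroup K ≤ (f1.eqLocus f2).map (chevF4.monomialSubgroup K).subtype := by
    rw [N_le_iff]
    constructor
    · intro c
      refine ⟨⟨_, diag_le_N (T_mem_diag c)⟩, ?_, rfl⟩
      show f1 _ = f2 _
      have e1 : f1 ⟨_, diag_le_N (T_mem_diag c)⟩ = 1 :=
        hdiag _ (mem_Pre.1 (diag_le_Pre hσ (T_mem_diag c))).2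
      have e2 : f2 ⟨_, diag_le_N (T_mem_diag c)⟩ = 1 := by
        show MulAut.conj barP (permHom K ⟨_, diag_le_N (T_mem_diag c)⟩) = 1
        rw [hdiag _ (T_mem_diag c), map_one]
      rw [e1, e2]
    · intro r hr
      refine ⟨⟨_, Wm_le_N (nG_mem_Wm hr)⟩, ?_, rfl⟩
      show f1 _ = f2 _
      have e1 : f1 ⟨_, Wm_le_N (nG_mem_Wm hr)⟩ = reflP (bar r) (bar_lt r hr) := by
        show permHom K ⟨j ⟨_, Wm_le_N (nG_mem_Wm hr)⟩, _⟩ = _
        have : (⟨j ⟨_, Wm_le_N (nG_mem_Wm hr)⟩, hj _⟩ : ↥(chevF4.monomialSubgroup K)) =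
          ⟨nG K (bar r), Wm_le_N (nG_mem_Wm (bar_lt r hr))⟩ := Subtype.ext (sig_nG hσ hr _)
        rw [this, permHom_nG (bar_lt r hr)]
      have e2 : f2 ⟨_, Wm_le_N (nG_mem_Wm hr)⟩ = barP * reflP r hr * barP⁻¹ := by
        show MulAut.conj barP (permHom K ⟨_, Wm_le_N (nG_mem_Wm hr)⟩) = _
        rw [permHom_nG hr, MulAut.conj_apply]
      rw [e1, e2, reflP_bar hr]
  obtain ⟨x, hx, hxn⟩ := hle hn
  have hxe : x = ⟨n, hn⟩ := Subtype.ext hxn
  rw [hxe] at hx
  exact ⟨hg ⟨n, hn⟩, hj ⟨n, hn⟩, hx⟩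

/-! ### the fixed points -/

theorem ro_io_vals : io 17 = ofPos 37 ∧ ro 17 = ofPos 28 ∧ io 14 = ofPos 31 ∧ ro 14 = ofPos 29 := by
  decide +kernel

open Cfsg.Agent.ChevalleyStructure.TwF4.Torus (T chi T_inr chi33 chi24 chi27 chi25 diagonal_eq_range)
open Cfsg.Agent.ChevalleyStructure.TwF4.TwGen (tc solve T_tc_mem)

theorem T_pos (c : Fin 4 → Kˣ) (r : Fin 48) :
    ((T c : GL chevF4.Idx K) : Matrix chevF4.Idx chevF4.Idx K) (ofPos (4 + r.val)) (ofPos (4 + r.val)) =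
      (chi c r.val : K) := by
  have h : ofPos (4 + r.val) = (Sum.inr (r : Fin chevF4.nroots) : chevF4.Idx) := by
    unfold ofPos
    rw [dif_neg (by omega)]
    congr 1
    apply Fin.ext
    show (4 + r.val - 4) % 48 = r.val
    have := r.2
    omega
  rw [h]
  exact T_inr c r

theorem diag_Fix {φ : K →+* K} (hφ : Rln φ (2 ^ m)) {g : GL chevF4.Idx K}
    (hg : g ∈ chevF4.diagonalSubgroup K) (hF : g ∈ Fix φ) : g ∈ twistedF4 K (2 ^ m) := by
  rw [diagonal_eq_range] at hg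
  obtain ⟨c, rfl⟩ := hg
  rw [mem_Fix] at hF
  have hun : ∀ x : Kˣ, x ^ (2 * 2 ^ m * 2 ^ m) = x := by
    intro x
    apply Units.ext
    have h1 := hφ.phi_pow (x : K)
    rw [hφ.phi, ← pow_mul, ← pow_mul] at h1
    rw [Units.val_pow_eq_pow_val]
    rw [show 2 * 2 ^ m * 2 ^ m = 2 ^ m * (2 ^ m * 2) by ring]
    exact h1
  have e1 := congrFun (congrFun hF.2 17) 17
  have e2 := congrFun (congrFun hF.2 14) 14
  rw [Cmat_apply, Matrix.map_apply, Amat_apply, ro_io_vals.1, ro_io_vals.2.1] at e1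
  rw [Cmat_apply, Matrix.map_apply, Amat_apply, ro_io_vals.2.2.1, ro_io_vals.2.2.2] at e2
  have t1 := T_pos (K := K) c ⟨24, by norm_num⟩
  have t2 := T_pos (K := K) c ⟨33, by norm_num⟩
  have t3 := T_pos (K := K) c ⟨25, by norm_num⟩
  have t4 := T_pos (K := K) c ⟨27, by norm_num⟩
  norm_num at t1 t2 t3 t4
  rw [t1, t2, hφ.phi] at e1
  rw [t3, t4, hφ.phi] at e2
  have u1 : chi c 33 = (chi c 24) ^ 2 ^ m := by
    apply Units.ext
    rw [Units.val_pow_eq_pow_val, e1]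
    have := hun (chi c 33)
    rw [← Units.val_inj, Units.val_pow_eq_pow_val] at this
    rw [← pow_mul, ← pow_mul, show 2 ^ m * (2 * 2 ^ m) = 2 * 2 ^ m * 2 ^ m by ring, this]
  have u2 : chi c 27 = (chi c 25) ^ 2 ^ m := by
    apply Units.ext
    rw [Units.val_pow_eq_pow_val, e2]
    have := hun (chi c 27)
    rw [← Units.val_inj, Units.val_pow_eq_pow_val] at this
    rw [← pow_mul, ← pow_mul, show 2 ^ m * (2 * 2 ^ m) = 2 * 2 ^ m * 2 ^ m by ring, this]
  rw [chi33, chi24] at u1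
  rw [chi27, chi25] at u2
  obtain ⟨h1, h2⟩ := solve hun (c 0) (c 1) (c 2) (c 3) u1 u2
  have hc : c = tc (2 ^ m) (c 2) (c 3) := by
    funext i
    fin_cases i
    · exact h1
    · exact h2
    · rfl
    · rfl
  rw [hc]
  exact T_tc_mem (by positivity) hun _ _

/-- `w₀`, the longest element, is in the twisted group. -/
theorem w0_tab : ∀ r < 48, w1 (w2 (w1 (w2 (w1 (w2 (w1 (w2 r))))))) = 47 - r := by decide +kernel

theorem neg_Fix {φ : K →+* K} (hφ : Rln φ (2 ^ m)) {v : GL chevF4.Idx K}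
    (hv : v ∈ GA K negB) (hF : v ∈ Fix φ) : v ∈ twistedF4 K (2 ^ m) := by
  set a : GL chevF4.Idx K := n1 K * n2 K with ha
  have hA : Act a (fun r => w1 (w2 r)) := Act_mul Act_n1 Act_n2
  have hA2 := Act_mul hA hA
  have hA4 := Act_mul hA2 hA2
  have haG : a ∈ twistedF4 K (2 ^ m) := mul_mem n1_mem (n2_mem hφ.pos)
  have hg : a * a * (a * a) ∈ twistedF4 K (2 ^ m) := mul_mem (mul_mem haG haG) (mul_mem haG haG)
  have h1 : a * a * (a * a) * v * (a * a * (a * a))⁻¹ ∈ GA K posB := by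
    refine Act_conj hA4 ?_ v hv
    intro r hr hn
    show posB (w1 (w2 (w1 (w2 (w1 (w2 (w1 (w2 r)))))))) = true
    rw [w0_tab r hr]
    unfold negB at hn
    unfold posB
    rw [decide_eq_true_eq] at hn ⊢
    omega
  have h2 : a * a * (a * a) * v * (a * a * (a * a))⁻¹ ∈ Fix φ :=
    mul_mem (mul_mem (twisted_le_Fix hφ hg) hF) (inv_mem (twisted_le_Fix hφ hg))
  have h3 : a * a * (a * a) * v * (a * a * (a * a))⁻¹ ∈ twistedF4 K (2 ^ m) := U_inf_Fix_le hφ ⟨h1, h2⟩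
  have h4 := mul_mem (mul_mem (inv_mem hg) h3) hg
  have e : (a * a * (a * a))⁻¹ * (a * a * (a * a) * v * (a * a * (a * a))⁻¹) * (a * a * (a * a)) = v := by
    group
  rwa [e] at h4

theorem borel_Fix {φ : K →+* K} (hφ : Rln φ (2 ^ m)) {b : GL chevF4.Idx K}
    (hb : b ∈ chevF4.borelSubgroup K) (hF : b ∈ Fix φ) : b ∈ twistedF4 K (2 ^ m) := by
  obtain ⟨u, hu, h, hh, rfl⟩ := (mem_borel_iff Cfsg.Agent.ChevalleyStructure.TwF4.BN.hHX b).1 hb
  obtain ⟨h1, h2⟩ := split_UH φ (GA_pos_le_UU (fun r _ hr => of_decide_eq_true hr) hu) (diag_le_DD hh) hF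
  exact mul_mem (U_inf_Fix_le hφ ⟨hu, h1⟩) (diag_Fix hφ hh h2)

/-- **the fixed points of `σ` are `²F₄(q)`.** -/
theorem fixed_mem {φ : K →+* K} (hφ : Rln φ (2 ^ m)) (hσ : IsSig m σ) {y : ↥(chevF4.group K)}
    (hy : σ y = y) : (y : GL chevF4.Idx K) ∈ twistedF4 K (2 ^ m) := by
  have hyF : (y : GL chevF4.Idx K) ∈ Fix φ := (fixed_iff hφ hσ y).1 hy
  obtain ⟨b, hb, n, hn, u, hu, e⟩ := (Cfsg.Agent.S1100.result (F := K) chevF4 (by simp)).1 _ y.2
  -- `u ∈ U`, `n u n⁻¹ ∈ U⁻`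
  have hcl : Subgroup.closure {x : GL chevF4.Idx K | ∃ (r : ℕ) (t : K), chevF4.IsPosRoot r ∧
      (chevF4.rootSubgroup K r).map (MulAut.conj n).toMonoidHom ≤ chevF4.negUnipotent K ∧
        (x : Matrix chevF4.Idx chevF4.Idx K) = chevF4.x K r t} ≤
      GA K posB ⊓ (GA K negB).comap (MulAut.conj n).toMonoidHom := by
    rw [Subgroup.closure_le]
    rintro x ⟨r, t, hr, hle, hx⟩
    have hx' : x = X r t := (eq_X_iff _ _ _).2 hx
    refine ⟨?_, ?_⟩
    · rw [← posUnipotent_eq]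
      exact Subgroup.subset_closure ⟨r, t, hr, hx⟩
    · show MulAut.conj n x ∈ GA K negB
      rw [← negUnipotent_eq]
      exact hle ⟨x, Subgroup.subset_closure ⟨t, hx⟩, rfl⟩
  obtain ⟨hu1, hu2⟩ := hcl hu
  have hBU : GA K posB ≤ chevF4.borelSubgroup K := by
    rw [← posUnipotent_eq]; exact le_sup_left
  have huB : u ∈ chevF4.borelSubgroup K := hBU hu1
  obtain ⟨hbY, hbσ⟩ := mem_Pre.1 (borel_le_Pre hσ hb)
  obtain ⟨huY, huσ⟩ := mem_Pre.1 (borel_le_Pre hσ huB)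
  obtain ⟨hnY, hnσ, hperm⟩ := perm_sig hσ n hn
  have ey : y = ⟨b, hbY⟩ * ⟨n, hnY⟩ * ⟨u, huY⟩ := Subtype.ext e
  have e1 : ((σ ⟨b, hbY⟩ : ↥(chevF4.group K)) : GL chevF4.Idx K) * (σ ⟨n, hnY⟩ : ↥(chevF4.group K)) *
      (σ ⟨u, huY⟩ : ↥(chevF4.group K)) = b * n * u := by
    have h := hy
    rw [ey, map_mul, map_mul] at h
    exact congrArg Subtype.val h
  have e2 : n = (b⁻¹ * ((σ ⟨b, hbY⟩ : ↥(chevF4.group K)) : GL chevF4.Idx K)) *
      (σ ⟨n, hnY⟩ : ↥(chevF4.group K)) * ((σ ⟨u, huY⟩ : ↥(chevF4.group K)) * u⁻¹) := by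
    calc n = b⁻¹ * (b * n * u) * u⁻¹ := by group
      _ = _ := by rw [← e1]; group
  have hp := Cfsg.Agent.ChevalleyStructure.TwF4.BN.perm_eq_of_bruhat ⟨n, hn⟩ ⟨_, hnσ⟩ _ _
    (mul_mem (inv_mem hb) hbσ) (mul_mem huσ (inv_mem huB)) e2
  rw [hperm] at hp
  have hcom : ∀ s : R, permHom K ⟨n, hn⟩ (barR s) = barR (permHom K ⟨n, hn⟩ s) := by
    intro s
    conv_lhs => rw [hp]
    rw [Equiv.Perm.mul_apply, Equiv.Perm.mul_apply, barP_inv_apply, barP_apply]
    congr 2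
    exact Fin.ext (bar_bar s.val s.2)
  obtain ⟨d, hd⟩ := Cfsg.Agent.ChevalleyStructure.TwF4.WeylDih.exists_iota (σ := permHom K ⟨n, hn⟩)
    (fun r s => permHom_car _ r s)
    (by
      have h := hcom Cfsg.Agent.ChevalleyStructure.TwF4.WeylDih.r33
      rw [show barR Cfsg.Agent.ChevalleyStructure.TwF4.WeylDih.r33 =
        Cfsg.Agent.ChevalleyStructure.TwF4.WeylDih.r24 from Fin.ext (by decide)] at h
      rw [h]; rfl)
    (by
      have h := hcom Cfsg.Agent.ChevalleyStructure.TwF4.WeylDih.r27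
      rw [show barR Cfsg.Agent.ChevalleyStructure.TwF4.WeylDih.r27 =
        Cfsg.Agent.ChevalleyStructure.TwF4.WeylDih.r25 from Fin.ext (by decide)] at h
      rw [h]; rfl)
  obtain ⟨n0, hn0⟩ := Cfsg.Agent.ChevalleyStructure.TwF4.WeylDih.iota_mem_piHom (K := K) (e := 2 ^ m)
    (by positivity) d
  rw [hd] at hn0
  have hn0N : (n0 : GL chevF4.Idx K) ∈ chevF4.monomialSubgroup K := n0.2.1
  have hn0G : (n0 : GL chevF4.Idx K) ∈ twistedF4 K (2 ^ m) := n0.2.2
  have hD := Cfsg.Agent.ChevalleyStructure.TwF4.BN.inv_mul_mem_of_perm hn0N hn (show permHom K ⟨n0, hn0N⟩ = _ from hn0)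
  -- `h₁ = n n₀⁻¹ ∈ H`
  have hh1 : n * (n0 : GL chevF4.Idx K)⁻¹ ∈ chevF4.diagonalSubgroup K := by
    have := N_conj_diagonal hn0N hD
    have e3 : (n0 : GL chevF4.Idx K) * ((n0 : GL chevF4.Idx K)⁻¹ * n) * (n0 : GL chevF4.Idx K)⁻¹ =
      n * (n0 : GL chevF4.Idx K)⁻¹ := by group
    rwa [e3] at this
  set n0' : GL chevF4.Idx K := (n0 : GL chevF4.Idx K) with hn0'
  set h1 : GL chevF4.Idx K := n * n0'⁻¹ with hh1'
  have hv : n0' * u * n0'⁻¹ ∈ GA K negB := by
    have h3 := H_norm_GA Cfsg.Agent.ChevalleyStructure.TwF4.BN.hHX negB h1⁻¹ (inv_mem hh1) _ hu2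
    have e4 : h1⁻¹ * (MulAut.conj n).toMonoidHom u * h1⁻¹⁻¹ = n0' * u * n0'⁻¹ := by
      rw [hh1']
      show (n * n0'⁻¹)⁻¹ * (n * u * n⁻¹) * (n * n0'⁻¹)⁻¹⁻¹ = _
      group
    rwa [e4] at h3
  have hbB : b * h1 ∈ chevF4.borelSubgroup K :=
    mul_mem hb ((le_sup_right : chevF4.diagonalSubgroup K ≤ chevF4.borelSubgroup K) hh1)
  have e5 : (y : GL chevF4.Idx K) * n0'⁻¹ = (b * h1) * (n0' * u * n0'⁻¹) := by
    rw [e, hh1']
    group
  have hF : (b * h1) * (n0' * u * n0'⁻¹) ∈ Fix φ := by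
    rw [← e5]
    exact mul_mem hyF (inv_mem (twisted_le_Fix hφ hn0G))
  obtain ⟨h4, h5⟩ := split_BV φ (borel_le_BB hbB)
    (GA_neg_le_VV (fun r _ hr => of_decide_eq_true hr) hv) hF
  have h6 : (y : GL chevF4.Idx K) * n0'⁻¹ ∈ twistedF4 K (2 ^ m) := by
    rw [e5]
    exact mul_mem (borel_Fix hφ hbB h4) (neg_Fix hφ hv h5)
  have := mul_mem h6 hn0G
  rwa [inv_mul_cancel_right] at this

/-- **Theorem.** -/
theorem sigma_fixed {φ : K →+* K} (hφ : Rln φ (2 ^ m)) (hσ : IsSig m σ) (y : ↥(chevF4.group K)) :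
    σ y = y ↔ (y : GL chevF4.Idx K) ∈ twistedF4 K (2 ^ m) :=
  ⟨fixed_mem hφ hσ, fun h => (fixed_iff hφ hσ y).2 (twisted_le_Fix hφ h)⟩

end Sigma

end Cfsg.Agent.H720.SigF4
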